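import Mathlib

/-!
# Unitary representations, the Hilbert-Schmidt norm and conjugates of quadratic elements

If `A` is a unitary matrix with `(A - 1) (A - ζ) = 0`, where `‖ζ - 1‖ < 1`, and `A` belongs to a finite
unitary group, then the conjugates of `A` commute pairwise.
-/

set_option autoImplicit false
set_option linter.unusedSectionVars false

namespace Cfsg.Agent.Lib.QuadRefl

open Matrix

universe u

variable {n : ℕ}

/-- The squared Hilbert-Schmidt norm. -/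
noncomputable def hs (T : Matrix (Fin n) (Fin n) ℂ) : ℝ := (Tᴴ * T).trace.re

lemma hs_eq (T : Matrix (Fin n) (Fin n) ℂ) : hs T = ∑ i, ∑ j, Complex.normSq (T j i) := by
  unfold hs
  simp only [Matrix.trace, Matrix.diag_apply, Matrix.mul_apply, Matrix.conjTranspose_apply,
    Complex.re_sum]
  refine Finset.sum_congr rfl fun i _ => Finset.sum_congr rfl fun j _ => ?_
  simp [Complex.normSq_apply]

lemma hs_im (T : Matrix (Fin n) (Fin n) ℂ) : (Tᴴ * T).trace.im = 0 := by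
  simp only [Matrix.trace, Matrix.diag_apply, Matrix.mul_apply, Matrix.conjTranspose_apply,
    Complex.im_sum]
  refine Finset.sum_eq_zero fun i _ => Finset.sum_eq_zero fun j _ => ?_
  simp
  ring

lemma hs_nonneg (T : Matrix (Fin n) (Fin n) ℂ) : 0 ≤ hs T := by
  rw [hs_eq]
  exact Finset.sum_nonneg fun i _ => Finset.sum_nonneg fun j _ => Complex.normSq_nonneg _

lemma hs_eq_zero {T : Matrix (Fin n) (Fin n) ℂ} (h : hs T = 0) : T = 0 := by
  rw [hs_eq] at h
  ext j i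
  have h1 := (Finset.sum_eq_zero_iff_of_nonneg
    (fun i _ => Finset.sum_nonneg fun j _ => Complex.normSq_nonneg _)).1 h i (Finset.mem_univ i)
  have h2 := (Finset.sum_eq_zero_iff_of_nonneg (fun j _ => Complex.normSq_nonneg _)).1 h1 j
    (Finset.mem_univ j)
  simpa using h2

lemma trace_eq_of_hs (T : Matrix (Fin n) (Fin n) ℂ) : (Tᴴ * T).trace = (hs T : ℂ) := by
  apply Complex.ext
  · simp [hs]
  · simp [hs_im]

lemma hs_unit_left {W : Matrix (Fin n) (Fin n) ℂ} (hW : Wᴴ * W = 1) (T : Matrix (Fin n) (Fin n) ℂ) :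
    hs (W * T) = hs T := by
  unfold hs
  rw [Matrix.conjTranspose_mul, show Tᴴ * Wᴴ * (W * T) = Tᴴ * (Wᴴ * W) * T by simp only [mul_assoc],
    hW, mul_one]

lemma hs_unit_right {W : Matrix (Fin n) (Fin n) ℂ} (hW : W * Wᴴ = 1) (T : Matrix (Fin n) (Fin n) ℂ) :
    hs (T * W) = hs T := by
  unfold hs
  rw [Matrix.conjTranspose_mul, show Wᴴ * Tᴴ * (T * W) = Wᴴ * (Tᴴ * T * W) by simp only [mul_assoc],
    Matrix.trace_mul_comm, mul_assoc, hW, mul_one]

lemma hs_smul (a : ℂ) (T : Matrix (Fin n) (Fin n) ℂ) : hs (a • T) = ‖a‖ ^ 2 * hs T := by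
  rw [hs_eq, hs_eq, Finset.mul_sum]
  refine Finset.sum_congr rfl fun i _ => ?_
  rw [Finset.mul_sum]
  refine Finset.sum_congr rfl fun j _ => ?_
  simp [map_mul, Complex.normSq_eq_norm_sq]

lemma hs_sub_add (S T : Matrix (Fin n) (Fin n) ℂ) : hs (S - T) + hs (S + T) = 2 * hs S + 2 * hs T := by
  rw [hs_eq, hs_eq, hs_eq, hs_eq, Finset.mul_sum, Finset.mul_sum, ← Finset.sum_add_distrib,
    ← Finset.sum_add_distrib]
  refine Finset.sum_congr rfl fun i _ => ?_
  rw [Finset.mul_sum, Finset.mul_sum, ← Finset.sum_add_distrib, ← Finset.sum_add_distrib]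
  refine Finset.sum_congr rfl fun j _ => ?_
  simp only [Matrix.sub_apply, Matrix.add_apply, Complex.normSq_apply, Complex.sub_re, Complex.sub_im,
    Complex.add_re, Complex.add_im]
  ring

lemma hs_sub_le (S T : Matrix (Fin n) (Fin n) ℂ) : hs (S - T) ≤ 2 * hs S + 2 * hs T := by
  have h1 := hs_sub_add S T
  have h2 := hs_nonneg (S + T)
  linarith

/-- A hermitian idempotent. -/
structure HI (F : Matrix (Fin n) (Fin n) ℂ) : Prop where
  herm : Fᴴ = F
  idem : F * F = F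

lemma HI.compl {F : Matrix (Fin n) (Fin n) ℂ} (hF : HI F) : HI (1 - F) := by
  constructor
  · rw [Matrix.conjTranspose_sub, Matrix.conjTranspose_one, hF.herm]
  · rw [mul_sub, sub_mul, sub_mul, hF.idem]
    simp

lemma HI.refl {F : Matrix (Fin n) (Fin n) ℂ} (hF : HI F) :
    ((2 : ℂ) • F - 1)ᴴ * ((2 : ℂ) • F - 1) = 1 ∧ ((2 : ℂ) • F - 1) * ((2 : ℂ) • F - 1)ᴴ = 1 := by
  have h1 : ((2 : ℂ) • F - 1)ᴴ = (2 : ℂ) • F - 1 := by
    rw [Matrix.conjTranspose_sub, Matrix.conjTranspose_one, Matrix.conjTranspose_smul, hF.herm]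
    simp
  have h2 : ((2 : ℂ) • F - 1) * ((2 : ℂ) • F - 1) = 1 := by
    rw [mul_sub, sub_mul, sub_mul, smul_mul_smul_comm, hF.idem]
    simp only [one_mul, mul_one, smul_mul_assoc, mul_smul_comm]
    rw [show (2 : ℂ) * 2 = 4 by norm_num]
    ext i j
    simp
    ring
  rw [h1]
  exact ⟨h2, h2⟩

lemma hs_comm_le {F : Matrix (Fin n) (Fin n) ℂ} (hF : HI F) (X : Matrix (Fin n) (Fin n) ℂ) :
    hs (F * X - X * F) ≤ hs X := by
  obtain ⟨h1, h2⟩ := hF.refl
  set R := (2 : ℂ) • F - 1 with hR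
  have h3 : F * X - X * F = (1 / 2 : ℂ) • (R * X - X * R) := by
    rw [hR, sub_mul, mul_sub, smul_mul_assoc, mul_smul_comm]
    simp only [one_mul, mul_one]
    ext i j
    simp
    ring
  rw [h3, hs_smul]
  have h4 := hs_sub_le (R * X) (X * R)
  rw [hs_unit_left h1, hs_unit_right h2] at h4
  have h5 : ‖(1 / 2 : ℂ)‖ ^ 2 = 1 / 4 := by
    simp
    norm_num
  rw [h5]
  linarith

section Unitary

variable {G : Type u} [Group G] [Finite G]

open scoped MatrixOrder ComplexOrder in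
/-- Every finite matrix group is conjugate to a unitary group. -/
theorem exists_unitary (R : G →* Matrix (Fin n) (Fin n) ℂ) :
    ∃ S T : Matrix (Fin n) (Fin n) ℂ, S * T = 1 ∧ T * S = 1 ∧ ∀ g, (S * R g * T)ᴴ * (S * R g * T) = 1 := by
  classical
  cases nonempty_fintype G
  set P : Matrix (Fin n) (Fin n) ℂ := ∑ g : G, (R g)ᴴ * R g with hP
  have hP1 : P.PosDef := by
    have h1 : P = (1 : Matrix (Fin n) (Fin n) ℂ) + ∑ g ∈ Finset.univ.erase (1 : G), (R g)ᴴ * R g := by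
      rw [hP, ← Finset.add_sum_erase _ _ (Finset.mem_univ (1 : G))]
      simp
    rw [h1]
    apply Matrix.PosDef.add_posSemidef Matrix.PosDef.one
    apply Matrix.posSemidef_sum
    intro g _
    exact Matrix.posSemidef_conjTranspose_mul_self _
  obtain ⟨S, hS⟩ := CStarAlgebra.nonneg_iff_eq_star_mul_self.mp hP1.posSemidef.nonneg
  rw [Matrix.star_eq_conjTranspose] at hS
  have hunit : IsUnit S.det := by
    have h1 : IsUnit P := hP1.isUnit
    have h2 : IsUnit P.det := (Matrix.isUnit_iff_isUnit_det P).1 h1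
    rw [hS, Matrix.det_mul] at h2
    exact isUnit_of_mul_isUnit_right h2
  have hinv : ∀ h, (R h)ᴴ * P * R h = P := by
    intro h
    rw [hP, Finset.mul_sum, Finset.sum_mul]
    refine Fintype.sum_equiv (Equiv.mulRight h) _ _ fun g => ?_
    simp only [Equiv.coe_mulRight, map_mul, Matrix.conjTranspose_mul]
    simp only [mul_assoc]
  refine ⟨S, S⁻¹, Matrix.mul_nonsing_inv S hunit, Matrix.nonsing_inv_mul S hunit, fun g => ?_⟩
  have h1 : (S * S⁻¹) = 1 := Matrix.mul_nonsing_inv S hunit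
  calc (S * R g * S⁻¹)ᴴ * (S * R g * S⁻¹)
      = (S⁻¹)ᴴ * ((R g)ᴴ * (Sᴴ * S) * R g) * S⁻¹ := by
        simp only [Matrix.conjTranspose_mul, mul_assoc]
    _ = (S⁻¹)ᴴ * (Sᴴ * S) * S⁻¹ := by
        rw [← hS, hinv]
    _ = (S * S⁻¹)ᴴ * (S * S⁻¹) := by
        simp only [Matrix.conjTranspose_mul, mul_assoc]
    _ = 1 := by rw [h1]; simp

end Unitary

section Quad

variable {ζ : ℂ}

lemma conj_zeta (hζ : ‖ζ‖ = 1) : (starRingEnd ℂ) ζ * ζ = 1 := by
  rw [mul_comm, Complex.mul_conj, Complex.normSq_eq_norm_sq, hζ]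
  simp

/-- The hermitian idempotent of a unitary quadratic matrix. -/
noncomputable def idem (ζ : ℂ) (A : Matrix (Fin n) (Fin n) ℂ) : Matrix (Fin n) (Fin n) ℂ :=
  (ζ - 1)⁻¹ • (A - 1)

lemma eq_one_add (hζ1 : ζ ≠ 1) (A : Matrix (Fin n) (Fin n) ℂ) : A = 1 + (ζ - 1) • idem ζ A := by
  unfold idem
  rw [smul_smul, mul_inv_cancel₀ (sub_ne_zero.2 hζ1), one_smul]
  abel

lemma idem_hi (hζ : ‖ζ‖ = 1) (hζ1 : ζ ≠ 1) {A : Matrix (Fin n) (Fin n) ℂ} (hA : Aᴴ * A = 1)
    (hq : (A - 1) * (A - ζ • 1) = 0) : HI (idem ζ A) := by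
  have hc : ζ - 1 ≠ 0 := sub_ne_zero.2 hζ1
  have hA' : A * Aᴴ = 1 := mul_eq_one_comm.1 hA
  have hsq : (A - 1) * (A - 1) = (ζ - 1) • (A - 1) := by
    have h1 : (A - 1) * (A - 1) = (A - 1) * (A - ζ • 1) + (ζ - 1) • (A - 1) := by
      rw [mul_sub, mul_sub, mul_smul_comm, mul_one, sub_smul, one_smul]
      abel
    rw [h1, hq, zero_add]
  constructor
  · -- hermitian
    have h0 : ζ ≠ 0 := by
      intro h
      rw [h, norm_zero] at hζ
      exact zero_ne_one hζ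
    have hAH : Aᴴ = ζ⁻¹ • ((1 + ζ) • (1 : Matrix (Fin n) (Fin n) ℂ) - A) := by
      have h1 : (A - 1) * (A - ζ • 1) * Aᴴ = 0 := by rw [hq, zero_mul]
      have h2 : (A - 1) * (A - ζ • 1) * Aᴴ = A - (1 + ζ) • 1 + ζ • Aᴴ := by
        have h3 : (A - 1) * (A - ζ • 1) = A * A - (1 + ζ) • A + ζ • 1 := by
          rw [sub_mul, mul_sub, one_mul, mul_smul_comm, mul_one, add_smul, one_smul]
          abel
        rw [h3, add_mul, sub_mul, mul_assoc, hA', mul_one, smul_mul_assoc, hA', smul_mul_assoc, one_mul]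
      rw [h2] at h1
      have h3 : ζ • Aᴴ = (1 + ζ) • 1 - A := by
        rw [← sub_eq_zero, ← h1]
        abel
      rw [← h3, smul_smul, inv_mul_cancel₀ h0, one_smul]
    have hconj : (starRingEnd ℂ) ζ = ζ⁻¹ := eq_inv_of_mul_eq_one_left (conj_zeta hζ)
    unfold idem
    rw [Matrix.conjTranspose_smul, Matrix.conjTranspose_sub, Matrix.conjTranspose_one, hAH]
    simp only [star_inv₀, star_sub, star_one, Complex.star_def, hconj]
    have h4 : (ζ⁻¹ - 1)⁻¹ • (ζ⁻¹ • ((1 + ζ) • (1 : Matrix (Fin n) (Fin n) ℂ) - A) - 1) =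
        ((ζ⁻¹ - 1)⁻¹ * ζ⁻¹) • (1 - A) := by
      rw [← smul_smul]
      congr 1
      rw [smul_sub, smul_smul, inv_mul_eq_div, smul_sub, sub_sub]
      rw [show (1 + ζ) / ζ = 1 + ζ⁻¹ by field_simp; ring]
      ext i j
      simp
      ring
    rw [h4]
    have h5 : (ζ⁻¹ - 1)⁻¹ * ζ⁻¹ = -(ζ - 1)⁻¹ := by
      have h6 : ζ⁻¹ - 1 ≠ 0 := by
        intro h
        apply hζ1
        have : ζ⁻¹ = 1 := sub_eq_zero.1 h
        exact inv_eq_one.1 this
      field_simp
      ring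
    rw [h5, neg_smul, ← smul_neg, neg_sub]
  · unfold idem
    rw [smul_mul_smul_comm, hsq, smul_smul]
    congr 1
    field_simp

end Quad

section Sublemma

variable {E : Matrix (Fin n) (Fin n) ℂ}

lemma zero_of_trace (hE : HI E) {d : ℂ} (hd : d.im ≠ 0) {Y : Matrix (Fin n) (Fin n) ℂ}
    (h : Yᴴ * (1 + d • E) * Y = 0) : Y = 0 := by
  have h1 : (Yᴴ * (1 + d • E) * Y).trace = (hs Y : ℂ) + d * (hs (E * Y) : ℂ) := by
    have h2 : Yᴴ * (1 + d • E) * Y = Yᴴ * Y + d • ((E * Y)ᴴ * (E * Y)) := by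
      rw [Matrix.conjTranspose_mul, hE.herm, mul_add, add_mul, mul_one, mul_smul_comm, smul_mul_assoc]
      congr 2
      rw [show Yᴴ * E * (E * Y) = Yᴴ * (E * E) * Y by simp only [mul_assoc], hE.idem]
    rw [h2, Matrix.trace_add, Matrix.trace_smul, trace_eq_of_hs, trace_eq_of_hs, smul_eq_mul]
  rw [h, Matrix.trace_zero] at h1
  have him := congrArg Complex.im h1
  have hre := congrArg Complex.re h1
  simp at him hre
  have hw : hs (E * Y) = 0 := by
    rcases him with h3 | h3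
    · exact absurd h3 hd
    · exact h3
  rw [hw] at hre
  simp at hre
  exact hs_eq_zero hre.symm

lemma comm_eq_aux (hE : HI E) {F F' A' : Matrix (Fin n) (Fin n) ℂ} (hF : HI F)
    (hF'F' : F' * F' = F') (hcomm : F * F' = F' * F) {d : ℂ} (hd : d.im ≠ 0) (hA' : A' = 1 + d • E)
    (hmul : ∀ Z, F' * Z = 0 → F * A' * Z = 0) (hmul2 : ∀ Z, F' * Z = Z → F * A' * Z = A' * Z) :
    F' = F := by
  have hY1 : F - F * F' = 0 := by
    have h1 : F * (F - F * F') = F - F * F' := by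
      rw [mul_sub, hF.idem, ← mul_assoc, hF.idem]
    have h2 : F' * (F - F * F') = 0 := by
      rw [mul_sub, ← mul_assoc, ← hcomm, mul_assoc, hF'F', sub_self]
    have h3 := hmul _ h2
    apply zero_of_trace hE hd
    rw [← hA']
    have h4 : (F - F * F')ᴴ = (F - F * F')ᴴ * F := by
      conv_lhs => rw [← h1]
      rw [Matrix.conjTranspose_mul, hF.herm]
    rw [h4]
    calc (F - F * F')ᴴ * F * A' * (F - F * F') = (F - F * F')ᴴ * (F * A' * (F - F * F')) := by
          simp only [mul_assoc]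
      _ = 0 := by rw [h3, mul_zero]
  have hY2 : F' - F * F' = 0 := by
    have h1 : F * (F' - F * F') = 0 := by
      rw [mul_sub, ← mul_assoc, hF.idem, sub_self]
    have h2 : F' * (F' - F * F') = F' - F * F' := by
      rw [mul_sub, hF'F', ← mul_assoc, ← hcomm, mul_assoc, hF'F']
    have h3 := hmul2 _ h2
    apply zero_of_trace hE hd
    rw [← hA']
    have h4 : (F' - F * F')ᴴ * F = 0 := by
      have : (F * (F' - F * F'))ᴴ = 0 := by rw [h1]; simp
      rwa [Matrix.conjTranspose_mul, hF.herm] at this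
    calc (F' - F * F')ᴴ * A' * (F' - F * F') = (F' - F * F')ᴴ * (A' * (F' - F * F')) := by
          simp only [mul_assoc]
      _ = (F' - F * F')ᴴ * (F * A' * (F' - F * F')) := by rw [h3]
      _ = ((F' - F * F')ᴴ * F) * A' * (F' - F * F') := by simp only [mul_assoc]
      _ = 0 := by rw [h4]; simp
  have h5 : F' = F * F' := sub_eq_zero.1 hY2
  have h6 : F = F * F' := sub_eq_zero.1 hY1
  rw [h5]
  exact h6.symm

lemma comm_eq_of_comm (hE : HI E) {F A A' : Matrix (Fin n) (Fin n) ℂ} (hF : HI F) (_hAA' : A * A' = 1)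
    (hA'A : A' * A = 1) {d : ℂ} (hd : d.im ≠ 0) (hA' : A' = 1 + d • E)
    (hcomm : F * (A * F * A') = (A * F * A') * F) : A * F * A' = F := by
  have hF'F' : (A * F * A') * (A * F * A') = A * F * A' := by
    calc A * F * A' * (A * F * A') = A * F * (A' * A) * F * A' := by simp only [mul_assoc]
      _ = A * (F * F) * A' := by rw [hA'A]; simp only [mul_one, mul_assoc]
      _ = _ := by rw [hF.idem]
  have hmul : ∀ Z, (A * F * A') * Z = 0 → F * A' * Z = 0 := by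
    intro Z hZ
    calc F * A' * Z = A' * A * F * A' * Z := by rw [hA'A, one_mul]
      _ = A' * ((A * F * A') * Z) := by simp only [mul_assoc]
      _ = 0 := by rw [hZ, mul_zero]
  have hmul2 : ∀ Z, (A * F * A') * Z = Z → F * A' * Z = A' * Z := by
    intro Z hZ
    calc F * A' * Z = A' * A * F * A' * Z := by rw [hA'A, one_mul]
      _ = A' * ((A * F * A') * Z) := by simp only [mul_assoc]
      _ = A' * Z := by rw [hZ]
  exact comm_eq_aux hE hF hF'F' hcomm hd hA' hmul hmul2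

end Sublemma

section Descent

variable {G : Type u} [Group G] {ζ : ℂ}
variable (U : G →* Matrix (Fin n) (Fin n) ℂ)

/-- The elements with a quadratic minimal polynomial. -/
def Quad (ζ : ℂ) (a : G) : Prop := (U a - 1) * (U a - ζ • 1) = 0

variable {U}

lemma u_mul_inv (g : G) : U g * U g⁻¹ = 1 := by rw [← map_mul, mul_inv_cancel, map_one]
lemma u_inv_mul (g : G) : U g⁻¹ * U g = 1 := by rw [← map_mul, inv_mul_cancel, map_one]

lemma Quad.conj {a : G} (h : Quad U ζ a) (g : G) : Quad U ζ (g * a * g⁻¹) := by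
  unfold Quad at *
  have h1 : U (g * a * g⁻¹) = U g * U a * U g⁻¹ := by simp
  have h2 : U (g * a * g⁻¹) - 1 = U g * (U a - 1) * U g⁻¹ := by
    rw [h1, mul_sub, sub_mul, mul_one, u_mul_inv]
  have h3 : U (g * a * g⁻¹) - ζ • 1 = U g * (U a - ζ • 1) * U g⁻¹ := by
    rw [h1, mul_sub, sub_mul, mul_smul_comm, mul_one, smul_mul_assoc, u_mul_inv]
  rw [h2, h3]
  calc U g * (U a - 1) * U g⁻¹ * (U g * (U a - ζ • 1) * U g⁻¹)
      = U g * ((U a - 1) * (U g⁻¹ * U g) * (U a - ζ • 1)) * U g⁻¹ := by simp only [mul_assoc]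
    _ = 0 := by rw [u_inv_mul, mul_one, h]; simp

lemma idem_conj (a b : G) : idem ζ (U (a * b * a⁻¹)) = U a * idem ζ (U b) * U a⁻¹ := by
  unfold idem
  rw [mul_smul_comm, smul_mul_assoc]
  congr 1
  rw [mul_sub, sub_mul, mul_one, u_mul_inv]
  simp

lemma descent (hζ1 : ζ ≠ 1) (hU : ∀ g, (U g)ᴴ * U g = 1) {a b : G} (hb : HI (idem ζ (U b))) :
    hs (idem ζ (U b) * idem ζ (U (a * b * a⁻¹)) - idem ζ (U (a * b * a⁻¹)) * idem ζ (U b)) ≤
      ‖ζ - 1‖ ^ 2 * hs (idem ζ (U a) * idem ζ (U b) - idem ζ (U b) * idem ζ (U a)) := by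
  set F := idem ζ (U b) with hF
  set F' := idem ζ (U (a * b * a⁻¹)) with hF'
  set Ea := idem ζ (U a) with hEa
  have h1 : F' - F = (ζ - 1) • ((Ea * F - F * Ea) * U a⁻¹) := by
    have h2 : F' = U a * F * U a⁻¹ := idem_conj a b
    have h3 : U a = 1 + (ζ - 1) • Ea := eq_one_add hζ1 (U a)
    have h4 : F = F * U a * U a⁻¹ := by rw [mul_assoc, u_mul_inv, mul_one]
    have h5 : U a * F - F * U a = (ζ - 1) • (Ea * F - F * Ea) := by
      have h6 : ∀ B, B = 1 + (ζ - 1) • Ea → B * F - F * B = (ζ - 1) • (Ea * F - F * Ea) := by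
        intro B hB
        rw [hB, add_mul, mul_add, one_mul, mul_one, smul_mul_assoc, mul_smul_comm, smul_sub]
        abel
      exact h6 _ h3
    calc F' - F = (U a * F - F * U a) * U a⁻¹ := by
          rw [sub_mul, mul_assoc (F) (U a), u_mul_inv, mul_one, h2]
      _ = _ := by rw [h5, smul_mul_assoc]
  have h2 : F * F' - F' * F = F * (F' - F) - (F' - F) * F := by
    rw [mul_sub, sub_mul]
    abel
  rw [h2]
  refine (hs_comm_le hb _).trans ?_
  rw [h1, hs_smul]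
  have hu : U a⁻¹ * (U a⁻¹)ᴴ = 1 := mul_eq_one_comm.1 (hU a⁻¹)
  rw [hs_unit_right hu]

variable [Finite G]

theorem quad_commute (hU : ∀ g, (U g)ᴴ * U g = 1) (hinj : Function.Injective U) (hζ : ‖ζ‖ = 1)
    (hζ1 : ζ ≠ 1) (hc : ‖ζ - 1‖ < 1) {a b : G} (ha : Quad U ζ a) (hb : Quad U ζ b) : a * b = b * a := by
  classical
  have hc0 : ζ - 1 ≠ 0 := sub_ne_zero.2 hζ1
  have him : ((starRingEnd ℂ) ζ - 1).im ≠ 0 := by
    simp only [Complex.sub_im, Complex.conj_im, Complex.one_im, sub_zero, ne_eq, neg_eq_zero]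
    intro h
    have h1 : ζ = (ζ.re : ℂ) := by
      apply Complex.ext <;> simp [h]
    have h2 : ‖(ζ.re : ℂ)‖ = 1 := by rw [← h1]; exact hζ
    rw [Complex.norm_real, Real.norm_eq_abs] at h2
    rcases eq_or_eq_neg_of_abs_eq h2 with h3 | h3
    · apply hζ1
      rw [h1, h3]
      simp
    · rw [h1, h3] at hc
      have : ‖(((-1 : ℝ) : ℂ)) - 1‖ = 2 := by
        have h4 : (((-1 : ℝ) : ℂ)) - 1 = ((-2 : ℝ) : ℂ) := by push_cast; ring
        rw [h4, Complex.norm_real]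
        simp
      rw [this] at hc
      linarith
  have hHI : ∀ {a : G}, Quad U ζ a → HI (idem ζ (U a)) := fun h => idem_hi hζ hζ1 (hU _) h
  let v : G × G → ℝ := fun t => hs (idem ζ (U t.1) * idem ζ (U t.2) - idem ζ (U t.2) * idem ζ (U t.1))
  have hvzero : ∀ {a b : G}, v (a, b) = 0 → a * b = b * a := by
    intro a b h
    have h1 := hs_eq_zero h
    have h2 := sub_eq_zero.1 h1
    apply hinj
    rw [map_mul, map_mul, eq_one_add hζ1 (U a), eq_one_add hζ1 (U b)]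
    simp only [add_mul, mul_add, one_mul, mul_one, smul_mul_smul_comm]
    rw [h2, mul_comm (ζ - 1) (ζ - 1)]
    abel
  by_contra hab
  have hv0 : v (a, b) ≠ 0 := fun h => hab (hvzero h)
  let T := {t : G × G // Quad U ζ t.1 ∧ Quad U ζ t.2 ∧ v t ≠ 0}
  haveI : Nonempty T := ⟨⟨(a, b), ha, hb, hv0⟩⟩
  obtain ⟨⟨⟨a₀, b₀⟩, ha₀, hb₀, hv₀⟩, hmin⟩ := Finite.exists_min (fun t : T => v t.1)
  simp only at ha₀ hb₀ hv₀
  have hpos : 0 < v (a₀, b₀) := lt_of_le_of_ne (hs_nonneg _) (Ne.symm hv₀)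
  set b₁ := a₀ * b₀ * a₀⁻¹ with hb₁
  have hq₁ : Quad U ζ b₁ := hb₀.conj a₀
  have hd : v (b₀, b₁) ≤ ‖ζ - 1‖ ^ 2 * v (a₀, b₀) := descent hζ1 hU (hHI hb₀)
  have hlt : v (b₀, b₁) < v (a₀, b₀) := by
    have h1 : ‖ζ - 1‖ ^ 2 < 1 := by
      have := norm_nonneg (ζ - 1)
      nlinarith
    nlinarith
  have hzero : v (b₀, b₁) = 0 := by
    by_contra h
    have := hmin ⟨(b₀, b₁), hb₀, hq₁, h⟩
    simp only at this
    linarith
  have hcomm : idem ζ (U b₀) * idem ζ (U b₁) = idem ζ (U b₁) * idem ζ (U b₀) :=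
    sub_eq_zero.1 (hs_eq_zero hzero)
  have hconj := idem_conj (U := U) (ζ := ζ) a₀ b₀
  rw [← hb₁] at hconj
  rw [hconj] at hcomm
  have hA' : U a₀⁻¹ = 1 + ((starRingEnd ℂ) ζ - 1) • idem ζ (U a₀) := by
    have h1 : U a₀⁻¹ = (U a₀)ᴴ := by
      calc U a₀⁻¹ = (U a₀)ᴴ * U a₀ * U a₀⁻¹ := by rw [hU, one_mul]
        _ = (U a₀)ᴴ := by rw [mul_assoc, u_mul_inv, mul_one]
    rw [h1]
    nth_rewrite 1 [eq_one_add hζ1 (U a₀)]
    rw [Matrix.conjTranspose_add, Matrix.conjTranspose_one, Matrix.conjTranspose_smul, (hHI ha₀).herm]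
    simp
  have h7 := comm_eq_of_comm (hHI ha₀) (hHI hb₀) (u_mul_inv a₀) (u_inv_mul a₀) him hA' hcomm
  rw [← hconj] at h7
  -- now `idem (b₁) = idem b₀`, so the original commutator vanishes
  have h8 : idem ζ (U a₀) * idem ζ (U b₀) = idem ζ (U b₀) * idem ζ (U a₀) := by
    have h3 : U a₀ * idem ζ (U b₀) = idem ζ (U b₀) * U a₀ := by
      calc U a₀ * idem ζ (U b₀) = (U a₀ * idem ζ (U b₀) * U a₀⁻¹) * U a₀ := by
            rw [mul_assoc _ (U a₀⁻¹), u_inv_mul, mul_one]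
        _ = idem ζ (U b₀) * U a₀ := by rw [← hconj, h7]
    nth_rewrite 1 [eq_one_add hζ1 (U a₀)] at h3
    nth_rewrite 2 [eq_one_add hζ1 (U a₀)] at h3
    rw [add_mul, mul_add, one_mul, mul_one, smul_mul_assoc, mul_smul_comm] at h3
    have h4 := add_left_cancel h3
    exact smul_right_injective _ hc0 h4
  apply hv₀
  show hs _ = 0
  simp only
  rw [sub_eq_zero.2 h8, hs]
  simp

end Descent

section Traces

/-- A unitary matrix all of whose low powers have the traces of a matrix with eigenvalues `1`, `ζ` is quadratic. -/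
lemma quad_of_traces {ζ : ℂ} (hζ : ‖ζ‖ = 1) {A : Matrix (Fin n) (Fin n) ℂ} (hA : Aᴴ * A = 1) (r m : ℂ)
    (hr : (starRingEnd ℂ) r = r) (hm : (starRingEnd ℂ) m = m)
    (h0 : (1 : Matrix (Fin n) (Fin n) ℂ).trace = r + m) (h1 : A.trace = r * ζ + m)
    (h2 : (A * A).trace = r * ζ ^ 2 + m) : (A - 1) * (A - ζ • 1) = 0 := by
  have hconj := conj_zeta hζ
  set w := (starRingEnd ℂ) ζ with hw
  have h1' : Aᴴ.trace = r * w + m := by
    rw [Matrix.trace_conjTranspose, h1]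
    simp [hr, hm, hw]
  have h2' : (Aᴴ * Aᴴ).trace = r * w ^ 2 + m := by
    rw [← Matrix.conjTranspose_mul, Matrix.trace_conjTranspose, h2]
    simp [hr, hm, hw]
  have hQ : (A - 1) * (A - ζ • 1) = A * A - (1 + ζ) • A + ζ • 1 := by
    rw [sub_mul, mul_sub, one_mul, mul_smul_comm, mul_one, add_smul, one_smul]
    abel
  have hQH : ((A - 1) * (A - ζ • 1))ᴴ = Aᴴ * Aᴴ - (1 + w) • Aᴴ + w • 1 := by
    rw [hQ, Matrix.conjTranspose_add, Matrix.conjTranspose_sub, Matrix.conjTranspose_mul,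
      Matrix.conjTranspose_smul, Matrix.conjTranspose_smul, Matrix.conjTranspose_one]
    simp [hw]
  have e1 : Aᴴ * Aᴴ * (A * A) = 1 := by
    calc Aᴴ * Aᴴ * (A * A) = Aᴴ * (Aᴴ * A) * A := by simp only [mul_assoc]
      _ = 1 := by rw [hA, mul_one, hA]
  have e2 : Aᴴ * Aᴴ * A = Aᴴ := by rw [mul_assoc, hA, mul_one]
  have e3 : Aᴴ * (A * A) = A := by rw [← mul_assoc, hA, one_mul]
  have hexp : ((A - 1) * (A - ζ • 1))ᴴ * ((A - 1) * (A - ζ • 1)) =
      (1 + (1 + ζ) * (1 + w) + ζ * w) • (1 : Matrix (Fin n) (Fin n) ℂ)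
        - ((1 + ζ) + (1 + w) * ζ) • Aᴴ + ζ • (Aᴴ * Aᴴ) - ((1 + w) + (1 + ζ) * w) • A + w • (A * A) := by
    rw [hQH, hQ]
    simp only [add_mul, mul_add, sub_mul, mul_sub, smul_mul_assoc, mul_smul_comm, one_mul, mul_one,
      e1, e2, e3, hA]
    module
  apply hs_eq_zero
  have htr : ((((A - 1) * (A - ζ • 1))ᴴ * ((A - 1) * (A - ζ • 1))).trace) = 0 := by
    rw [hexp]
    simp only [Matrix.trace_add, Matrix.trace_sub, Matrix.trace_smul, smul_eq_mul]
    rw [h0, h1, h1', h2, h2']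
    linear_combination (-2 * r) * hconj
  unfold hs
  rw [htr]
  rfl

end Traces

end Cfsg.Agent.Lib.QuadRefl
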