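import Mathlib
import Cfsg.Agent.Lib.QuadRefl.Unitary
import Cfsg.Agent.Lib.Char.Ortho
import Cfsg.Agent.Lib.Char.BrauerSCNum
import Cfsg.Agent.Lib.Char.BlichfeldtB
import Cfsg.Agent.Lib.Char.LinearChars
import Cfsg.Agent.Lib.Basic.SylowUtil

/-!
# The character of a non-abelian Sylow subgroup in a small-degree faithful character
-/

set_option autoImplicit false
set_option linter.unusedSectionVars false

namespace Cfsg.Agent.Lib.QuadRefl

open Cfsg Cfsg.Agent.Lib.Char.Ortho Cfsg.Agent.Lib.Char.Basic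
open scoped commutatorElement

universe u

section Linear

variable {H : Type u} [Group H] [Finite H]

/-- A character all of whose constituents are linear is constant on commutators. -/
lemma char_commutator_of_linear (m : IrrCharacter H → ℕ) (hlin : ∀ ψ, m ψ ≠ 0 → (ψ : H → ℂ) 1 = 1)
    {c : H} (hc : c ∈ commutator H) : (∑ ψ, m ψ • (ψ : H → ℂ)) c = (∑ ψ, m ψ • (ψ : H → ℂ)) 1 := by
  rw [Finset.sum_apply, Finset.sum_apply]
  refine Finset.sum_congr rfl fun ψ _ => ?_
  simp only [Pi.smul_apply]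
  by_cases h : m ψ = 0
  · simp [h]
  · congr 1
    obtain ⟨φ, hφ⟩ := Cfsg.Agent.Lib.Char.LinearChars.exists_hom_of_isCharacter_one
      (isCharacter_of_isIrrCharacter ψ.2) (hlin ψ h)
    rw [hφ]
    have h1 : c ∈ φ.ker := by
      have : commutator H ≤ φ.ker := Abelianization.commutator_subset_ker φ
      exact this hc
    simp only [MonoidHom.mem_ker] at h1
    simp [h1]

end Linear

section Special

variable {G : Type u} [Group G] [Finite G]

/-- The element `x` of a non-abelian `p`-subgroup on which `χ` has the values of a reflection-like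
element. -/
theorem exists_special_element {χ : G → ℂ} (hχ : IsIrrCharacter G χ) (hfaith : ∀ g, χ g = χ 1 → g = 1)
    {n p : ℕ} (hp : p.Prime) (hn : χ 1 = n) (hn2 : n < 2 * p) (hnp : n ≠ p) {P : Subgroup G}
    (hP : IsPGroup p P) {a b : G} (ha : a ∈ P) (hb : b ∈ P) (hab : a * b ≠ b * a) :
    p < n ∧ ∃ x : G, x ∈ P ∧ x ^ p = 1 ∧
      ∀ k : ℕ, χ (x ^ k) = (p : ℂ) * (Complex.exp (2 * Real.pi * Complex.I / p)) ^ k + ((n : ℂ) - p) := by
  classical
  haveI : Fact p.Prime := ⟨hp⟩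
  cases nonempty_fintype G
  have hp2 := hp.two_le
  -- the restriction
  obtain ⟨m, hm⟩ := exists_nat_decomp (isCharacter_restrict (isCharacter_of_isIrrCharacter hχ) P)
  have hval : ∀ c : P, χ (c : G) = ∑ ψ, (m ψ : ℂ) * (ψ : P → ℂ) c := by
    intro c
    have := congrFun hm c
    simp only [Finset.sum_apply, Pi.smul_apply, nsmul_eq_mul] at this
    exact this
  choose D hDpos hD using fun ψ : IrrCharacter P => irr_degree_pos ψ.2
  have hsum : n = ∑ ψ, m ψ * D ψ := by
    have h1 := hval 1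
    simp only [OneMemClass.coe_one, hn] at h1
    have h2 : (n : ℂ) = ((∑ ψ, m ψ * D ψ : ℕ) : ℂ) := by
      rw [h1]
      push_cast
      refine Finset.sum_congr rfl fun ψ _ => ?_
      rw [hD]
    exact_mod_cast h2
  have hpow : ∀ ψ, ∃ j, D ψ = p ^ j := by
    intro ψ
    have h1 := Cfsg.Agent.Lib.Char.BrauerSCNum.degree_dvd ψ (D ψ) (hD ψ)
    obtain ⟨k, hk⟩ := IsPGroup.iff_card.1 hP
    rw [hk] at h1
    obtain ⟨j, -, hj⟩ := (Nat.dvd_prime_pow hp).1 h1
    exact ⟨j, hj⟩
  have hle : ∀ ψ, m ψ * D ψ ≤ n := by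
    intro ψ
    rw [hsum]
    exact Finset.single_le_sum (f := fun ψ => m ψ * D ψ) (fun _ _ => Nat.zero_le _) (Finset.mem_univ ψ)
  -- nonlinear constituent
  let a' : P := ⟨a, ha⟩
  let b' : P := ⟨b, hb⟩
  have hne : ⁅a', b'⁆ ≠ 1 := by
    intro h
    have h1 := commutatorElement_eq_one_iff_mul_comm.1 h
    exact hab (congrArg Subtype.val h1)
  have hcomm_ne : commutator P ≠ ⊥ := by
    intro h
    have : ⁅a', b'⁆ ∈ commutator P := Subgroup.commutator_mem_commutator (Subgroup.mem_top _) (Subgroup.mem_top _)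
    rw [h, Subgroup.mem_bot] at this
    exact hne this
  have hex : ∃ ψ₀, m ψ₀ ≠ 0 ∧ D ψ₀ ≠ 1 := by
    by_contra hcon
    push Not at hcon
    have hlin : ∀ ψ, m ψ ≠ 0 → (ψ : P → ℂ) 1 = 1 := by
      intro ψ h
      rw [hD, hcon ψ h]
      simp
    have h1 : ⁅a', b'⁆ ∈ commutator P := Subgroup.commutator_mem_commutator (Subgroup.mem_top _) (Subgroup.mem_top _)
    have h2 := char_commutator_of_linear m hlin h1
    rw [← hm] at h2
    simp only [OneMemClass.coe_one] at h2
    have h3 := hfaith _ h2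
    apply hne
    exact Subtype.ext h3
  obtain ⟨ψ₀, hψ₀, hD₀⟩ := hex
  have hD₀p : D ψ₀ = p := by
    obtain ⟨j, hj⟩ := hpow ψ₀
    have h1 := hle ψ₀
    have h2 : D ψ₀ ≤ n := by
      have : 1 ≤ m ψ₀ := Nat.one_le_iff_ne_zero.2 hψ₀
      nlinarith [hDpos ψ₀]
    rcases j with _ | _ | j
    · simp at hj
      exact absurd hj hD₀
    · simpa using hj
    · exfalso
      rw [hj] at h2
      have h3 : p ^ (j + 1 + 1) = p ^ j * p * p := by ring
      have h4 : 1 ≤ p ^ j := Nat.one_le_pow _ _ hp.pos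
      have h5 : p * p ≤ p ^ (j + 1 + 1) := by
        rw [h3]
        nlinarith [Nat.mul_le_mul_right p (Nat.mul_le_mul_right p h4)]
      nlinarith
  have hrest : n = m ψ₀ * p + ∑ ψ ∈ Finset.univ.erase ψ₀, m ψ * D ψ := by
    rw [hsum, ← Finset.add_sum_erase _ _ (Finset.mem_univ ψ₀), hD₀p]
  have hm₀ : m ψ₀ = 1 := by
    have h1 : m ψ₀ * p < 2 * p := by
      have := hle ψ₀
      rw [hD₀p] at this
      omega
    have h2 : m ψ₀ < 2 := lt_of_mul_lt_mul_right h1 (Nat.zero_le _)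
    omega
  have hlt : ∑ ψ ∈ Finset.univ.erase ψ₀, m ψ * D ψ < p := by
    rw [hm₀] at hrest
    omega
  have hothers : ∀ ψ, ψ ≠ ψ₀ → m ψ ≠ 0 → D ψ = 1 := by
    intro ψ hne' hψ
    obtain ⟨j, hj⟩ := hpow ψ
    have h1 : m ψ * D ψ ≤ ∑ ψ ∈ Finset.univ.erase ψ₀, m ψ * D ψ :=
      Finset.single_le_sum (f := fun ψ => m ψ * D ψ) (fun _ _ => Nat.zero_le _)
        (Finset.mem_erase.2 ⟨hne', Finset.mem_univ ψ⟩)
    have h2 : D ψ < p := by
      have : 1 ≤ m ψ := Nat.one_le_iff_ne_zero.2 hψ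
      nlinarith [hDpos ψ]
    rcases j with _ | j
    · simpa using hj
    · exfalso
      rw [hj, pow_succ] at h2
      have h4 : 1 ≤ p ^ j := Nat.one_le_pow _ _ hp.pos
      nlinarith
  have hnlt : p < n := by
    have h1 : p ≤ n := by
      have := hle ψ₀
      rw [hD₀p, hm₀, one_mul] at this
      exact this
    exact lt_of_le_of_ne h1 (Ne.symm hnp)
  -- the sum of the linear ones
  let L : P → ℂ := fun c => ∑ ψ ∈ Finset.univ.erase ψ₀, (m ψ : ℂ) * (ψ : P → ℂ) c
  have hsplit : ∀ c : P, χ (c : G) = (ψ₀ : P → ℂ) c + L c := by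
    intro c
    rw [hval, ← Finset.add_sum_erase _ _ (Finset.mem_univ ψ₀), hm₀]
    simp [L]
  have hL1 : L 1 = (n : ℂ) - p := by
    have h1 := hsplit 1
    simp only [OneMemClass.coe_one, hn] at h1
    rw [hD ψ₀, hD₀p] at h1
    rw [h1]
    ring
  have hLc : ∀ c ∈ commutator P, L c = L 1 := by
    intro c hc
    refine Finset.sum_congr rfl fun ψ hψ => ?_
    by_cases h : m ψ = 0
    · simp [h]
    · have hlin : (ψ : P → ℂ) 1 = 1 := by
        rw [hD, hothers ψ (Finset.ne_of_mem_erase hψ) h]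
        simp
      obtain ⟨φ, hφ⟩ := Cfsg.Agent.Lib.Char.LinearChars.exists_hom_of_isCharacter_one
        (isCharacter_of_isIrrCharacter ψ.2) hlin
      congr 1
      rw [hφ]
      have h1 : c ∈ φ.ker := (Abelianization.commutator_subset_ker φ) hc
      simp only [MonoidHom.mem_ker] at h1
      simp [h1]
  -- the central element
  have hPf : IsPGroup p P := hP
  have hcen := Cfsg.Agent.Lib.Basic.SylowUtil.inf_center_ne_bot_of_isPGroup hPf (N := commutator P) hcomm_ne
  -- element of order p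
  obtain ⟨y, hy1, hy2⟩ : ∃ y : P, y ∈ commutator P ⊓ Subgroup.center P ∧ orderOf y = p := by
    have h1 : p ∣ Nat.card ↥(commutator P ⊓ Subgroup.center P) := by
      have h2 : IsPGroup p ↥(commutator P ⊓ Subgroup.center P) :=
        IsPGroup.to_subgroup hPf _
      obtain ⟨k, hk⟩ := IsPGroup.iff_card.1 h2
      rw [hk]
      have h3 : k ≠ 0 := by
        rintro rfl
        apply hcen
        rw [pow_zero] at hk
        exact Subgroup.eq_bot_of_card_eq _ hk
      exact dvd_pow_self p h3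
    obtain ⟨w, hw⟩ := exists_prime_orderOf_dvd_card' p h1
    refine ⟨w, w.2, ?_⟩
    rw [← hw]
    exact Subgroup.orderOf_coe w
  have hy0 : y ^ p = 1 := by rw [← hy2]; exact pow_orderOf_eq_one y
  have hyne : (y : G) ≠ 1 := by
    intro h
    have : y = 1 := Subtype.ext h
    rw [this, orderOf_one] at hy2
    exact hp.one_lt.ne hy2
  have hycen : y ∈ Subgroup.center P := hy1.2
  obtain ⟨α, -, hα⟩ := Cfsg.Agent.Lib.Char.BlichfeldtB.irr_central_mul ψ₀.2 y (fun g =>
    ((Subgroup.mem_center_iff.1 hycen) g))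
  have hpowα : ∀ k : ℕ, (ψ₀ : P → ℂ) (y ^ k) = α ^ k * p := by
    intro k
    induction k with
    | zero =>
      simp [hD ψ₀, hD₀p]
    | succ k ih =>
      rw [pow_succ', hα, ih, pow_succ']
      ring
  have hp0 : (p : ℂ) ≠ 0 := by exact_mod_cast hp.ne_zero
  have hαp : α ^ p = 1 := by
    have h1 := hpowα p
    rw [hy0, hD ψ₀, hD₀p] at h1
    exact (mul_right_cancel₀ hp0 (by rw [one_mul]; exact h1)).symm
  have hα1 : α ≠ 1 := by
    intro h
    have h1 := hsplit y
    have h2 := hpowα 1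
    rw [pow_one, h, one_pow, one_mul] at h2
    rw [h2, hLc y hy1.1, hL1] at h1
    apply hyne
    apply hfaith
    rw [h1, hn]
    ring
  have hprim : IsPrimitiveRoot α p := by
    have h1 : orderOf α = p := orderOf_eq_prime hαp hα1
    rw [← h1]
    exact IsPrimitiveRoot.orderOf α
  have hζ := Complex.isPrimitiveRoot_exp p hp.ne_zero
  obtain ⟨r, -, hr⟩ := hprim.eq_pow_of_pow_eq_one hζ.pow_eq_one
  refine ⟨hnlt, ((y ^ r : P) : G), (y ^ r).2, ?_, ?_⟩
  · rw [← Subgroup.coe_pow, ← pow_mul, mul_comm, pow_mul, hy0, one_pow]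
    rfl
  · intro k
    rw [← Subgroup.coe_pow, hsplit]
    have h1 : (y ^ r) ^ k ∈ commutator P := Subgroup.pow_mem _ (Subgroup.pow_mem _ hy1.1 r) k
    rw [hLc _ h1, hL1, ← pow_mul, hpowα, pow_mul, hr]
    ring

end Special

end Cfsg.Agent.Lib.QuadRefl
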