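import Mathlib
import Cfsg.Agent.Lib.QuadRefl.StepA
import Cfsg.Agent.Lib.Char.Clifford
import Cfsg.Agent.Lib.Char.NormExt
import Cfsg.Agent.Lib.Basic.PCore

/-!
# Multiplicity-free restrictions to an abelian normal subgroup, and the index of `O_p(G)`
-/

set_option autoImplicit false
set_option linter.unusedSectionVars false

namespace Cfsg.Agent.Lib.QuadRefl

open Cfsg Cfsg.Agent.Lib.Char Cfsg.Agent.Lib.Char.Ortho Cfsg.Agent.Lib.Char.Basic Cfsg.Agent.Lib.Char.Clifford
open scoped commutatorElement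

universe u

section Factorial

lemma not_sq_dvd_factorial {p n : ℕ} (hp : p.Prime) (hn : n < 2 * p) : ¬ p ^ 2 ∣ n.factorial := by
  haveI : Fact p.Prime := ⟨hp⟩
  have hp2 := hp.two_le
  have hlog : Nat.log p n < 2 := by
    apply Nat.log_lt_of_lt_pow'
    · norm_num
    · calc n < 2 * p := hn
        _ ≤ p * p := Nat.mul_le_mul_right p hp2
        _ = p ^ 2 := by ring
  have h1 := padicValNat_factorial (p := p) hlog
  have h2 : Finset.Ico 1 2 = {1} := rfl
  rw [h2, Finset.sum_singleton, pow_one] at h1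
  intro h
  have h3 := (padicValNat_dvd_iff_le (Nat.factorial_ne_zero n)).1 h
  rw [h1] at h3
  have h4 : n / p < 2 := Nat.div_lt_of_lt_mul (by omega)
  omega

end Factorial

section D

variable {G : Type u} [Group G] [Fintype G] (A : Subgroup G) [hA : A.Normal] [Fintype A]

variable {χ : G → ℂ} {n p : ℕ} {x : G} {ζ : ℂ}

/-- The multiplicity of a constituent of the restriction to `A` is one. -/
lemma mult_eq_one (hχ : IsIrrCharacter G χ) (hp : p.Prime) (hn : χ 1 = n) (hnlt : p < n) (hn2 : n < 2 * p)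
    (hxk : ∀ k : ℕ, χ (x ^ k) = (p : ℂ) * ζ ^ k + ((n : ℂ) - p)) (hζ : IsPrimitiveRoot ζ p) (hxp : x ^ p = 1)
    (hAc : ∀ a b : A, a * b = b * a) (hxA : x ∈ A) {ν : A → ℂ} (hν : IsIrrCharacter A ν)
    (hne : classInner (fun a : A => χ a) ν ≠ 0) :
    classInner (fun a : A => χ a) ν = 1 ∧ ∀ a : A, χ a = ∑ ψ ∈ (orbitSet_finite A hν).toFinset, ψ a := by
  classical
  have hres := isCharacter_restrict (isCharacter_of_isIrrCharacter hχ) A
  obtain ⟨c, hc⟩ := exists_nat_classInner hres ⟨ν, hν⟩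
  simp only at hc
  have hcl := res_eq_smul_finsum A hχ hν hne
  set hfin := orbitSet_finite A hν with hfin_def
  rw [finsum_mem_eq_finite_toFinset_sum _ hfin, hc] at hcl
  set S := hfin.toFinset with hS
  have hval : ∀ a : A, χ a = (c : ℂ) * ∑ ψ ∈ S, ψ a := by
    intro a
    have := congrFun hcl a
    simpa [Finset.sum_apply] using this
  have hirr : ∀ ψ ∈ S, IsIrrCharacter A ψ := fun ψ hψ =>
    orbitSet_subset_irr A hν (hfin.mem_toFinset.1 hψ)
  have hone : ∀ ψ ∈ S, ψ 1 = 1 := fun ψ hψ =>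
    Cfsg.Agent.Lib.Char.NormExt.irr_one_of_comm hAc (hirr ψ hψ)
  have hn' : n = c * S.card := by
    have h1 := hval 1
    simp only [OneMemClass.coe_one, hn] at h1
    rw [Finset.sum_congr rfl hone] at h1
    simp only [Finset.sum_const, nsmul_eq_mul, mul_one] at h1
    exact_mod_cast h1
  let x' : A := ⟨x, hxA⟩
  have hhom : ∀ ψ ∈ S, ∀ k : ℕ, ψ (x' ^ k) = (ψ x') ^ k := by
    intro ψ hψ k
    obtain ⟨φ, hφ⟩ := Cfsg.Agent.Lib.Char.LinearChars.exists_hom_of_isCharacter_one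
      (isCharacter_of_isIrrCharacter (hirr ψ hψ)) (hone ψ hψ)
    rw [hφ]
    simp
  have hw : ∀ ψ ∈ S, (ψ x') ^ p = 1 := by
    intro ψ hψ
    rw [← hhom ψ hψ]
    have : x' ^ p = 1 := Subtype.ext hxp
    rw [this, hone ψ hψ]
  have hp0 : (p : ℂ) ≠ 0 := by exact_mod_cast hp.ne_zero
  have hgeom : ∀ ψ ∈ S, ∑ k ∈ Finset.range p, (ψ x') ^ k = if ψ x' = 1 then (p : ℂ) else 0 := by
    intro ψ hψ
    split_ifs with h
    · simp [h]
    · rw [geom_sum_eq h, hw ψ hψ]
      simp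
  let b : ℕ := (S.filter fun ψ => ψ x' = 1).card
  have hsum1 : ∑ k ∈ Finset.range p, χ (x ^ k) = (p : ℂ) * ((n : ℂ) - p) := by
    simp only [hxk]
    rw [Finset.sum_add_distrib, ← Finset.mul_sum, hζ.geom_sum_eq_zero hp.one_lt]
    simp
    ring
  have hsum2 : ∑ k ∈ Finset.range p, χ (x ^ k) = (c : ℂ) * ((p : ℂ) * b) := by
    have h1 : ∀ k ∈ Finset.range p, χ (x ^ k) = (c : ℂ) * ∑ ψ ∈ S, (ψ x') ^ k := by
      intro k _
      have h2 := hval (x' ^ k)
      have h3 : ((x' ^ k : A) : G) = x ^ k := rfl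
      rw [h3] at h2
      rw [h2]
      congr 1
      exact Finset.sum_congr rfl fun ψ hψ => hhom ψ hψ k
    rw [Finset.sum_congr rfl h1, ← Finset.mul_sum, Finset.sum_comm, Finset.sum_congr rfl hgeom,
      Finset.sum_ite, Finset.sum_const, Finset.sum_const_zero, add_zero, nsmul_eq_mul]
    rw [mul_comm (b : ℂ)]
  have hnb : n - p = c * b := by
    have h1 : (p : ℂ) * ((n : ℂ) - p) = (p : ℂ) * ((c : ℂ) * b) := by
      rw [← hsum1, hsum2]
      ring
    have h2 := mul_left_cancel₀ hp0 h1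
    have h3 : ((n - p : ℕ) : ℂ) = ((c * b : ℕ) : ℂ) := by
      rw [Nat.cast_sub hnlt.le, h2]
      push_cast
      ring
    exact_mod_cast h3
  have hc0 : c ≠ 0 := by
    intro h
    apply hne
    rw [hc, h]
    simp
  have hc1 : c = 1 := by
    have h1 : c ∣ p := by
      have h2 : c ∣ n := ⟨_, hn'⟩
      have h3 : c ∣ n - p := ⟨_, hnb⟩
      have h4 := (Nat.dvd_sub_iff_right hnlt.le h2).1 h3
      exact h4
    rcases (Nat.dvd_prime hp).1 h1 with h | h
    · exact h
    · exfalso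
      have hb0 : b ≠ 0 := by
        intro h0
        rw [h0, mul_zero] at hnb
        omega
      have h5 : c ≤ c * b := Nat.le_mul_of_pos_right c (Nat.pos_of_ne_zero hb0)
      omega
  refine ⟨by rw [hc, hc1]; simp, fun a => ?_⟩
  rw [hval a, hc1]
  simp

/-- The permutation action of `G` on an orbit of a function on a normal subgroup. -/
noncomputable def omegaHom (ν : A → ℂ) : G →* Equiv.Perm {ψ : A → ℂ // ψ ∈ orbitSet A ν} where
  toFun g :=
    { toFun := fun ψ => ⟨Clifford.conjFun A g⁻¹ ψ.1, by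
        obtain ⟨h, hh⟩ := ψ.2
        exact ⟨h * g⁻¹, by rw [conjFun_mul, ← hh]⟩⟩
      invFun := fun ψ => ⟨Clifford.conjFun A g ψ.1, by
        obtain ⟨h, hh⟩ := ψ.2
        exact ⟨h * g, by rw [conjFun_mul, ← hh]⟩⟩
      left_inv := fun ψ => Subtype.ext (by simp only [conjFun_conjFun_inv])
      right_inv := fun ψ => Subtype.ext (by simp only [conjFun_inv_conjFun]) }
  map_one' := by
    ext ψ : 2
    simp
  map_mul' a b := by
    ext ψ : 2
    simp only [Equiv.coe_fn_mk, Equiv.Perm.coe_mul, Function.comp_apply, mul_inv_rev, conjFun_mul]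

lemma mem_ker_omegaHom {ν : A → ℂ} {g : G} (hg : g ∈ (omegaHom A ν).ker) {ψ : A → ℂ}
    (hψ : ψ ∈ orbitSet A ν) : Clifford.conjFun A g ψ = ψ := by
  have h1 : omegaHom A ν g = 1 := hg
  have h2 := congrArg (fun f => (f ⟨ψ, hψ⟩ : {ψ : A → ℂ // ψ ∈ orbitSet A ν}).1) h1
  simp only [omegaHom, MonoidHom.coe_mk, OneHom.coe_mk, Equiv.coe_fn_mk, Equiv.Perm.coe_one, id] at h2
  calc Clifford.conjFun A g ψ = Clifford.conjFun A g (Clifford.conjFun A g⁻¹ ψ) := by rw [h2]
    _ = ψ := conjFun_conjFun_inv A g ψ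

/-- The kernel of the action centralizes `A`. -/
lemma ker_le_centralizer (hfaith : ∀ g, χ g = χ 1 → g = 1) {S : Finset (A → ℂ)}
    {ν : A → ℂ} (hS : ∀ ψ ∈ S, ψ ∈ orbitSet A ν) (hall : ∀ a : A, χ a = ∑ ψ ∈ S, ψ a)
    (hhom : ∀ ψ ∈ S, ∃ φ : A →* ℂˣ, ψ = fun g => ((φ g : ℂˣ) : ℂ)) {g : G}
    (hg : g ∈ (omegaHom A ν).ker) : g ∈ Subgroup.centralizer (A : Set G) := by
  rw [Subgroup.mem_centralizer_iff]
  intro h hh
  let h' : A := ⟨h, hh⟩
  let h₁ : A := ⟨g * h * g⁻¹, hA.conj_mem h hh g⟩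
  have hone : ∀ ψ ∈ S, ψ (h₁ * h'⁻¹) = ψ 1 := by
    intro ψ hψ
    have h2 : Clifford.conjFun A g ψ h' = ψ h' := by rw [mem_ker_omegaHom A hg (hS ψ hψ)]
    rw [Clifford.conjFun_apply] at h2
    obtain ⟨φ, rfl⟩ := hhom ψ hψ
    simp only at h2 ⊢
    rw [map_mul, map_inv, map_one, Units.val_mul, Units.val_one]
    have h3 : φ h₁ = φ h' := Units.ext h2
    rw [h3]
    simp
  have h2 : χ ((h₁ * h'⁻¹ : A) : G) = χ 1 := by
    rw [hall, Finset.sum_congr rfl hone]
    have := hall 1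
    simp only [OneMemClass.coe_one] at this
    rw [this]
  have h3 := hfaith _ h2
  have h4 : g * h * g⁻¹ * h⁻¹ = 1 := h3
  have h5 : g * h * g⁻¹ = h := mul_inv_eq_one.1 h4
  have h6 : g * h = h * g := mul_inv_eq_iff_eq_mul.1 h5
  exact h6.symm

/-- Every element of a subgroup centralizing `A` whose restriction is multiplicity-free commutes. -/
lemma centralizer_comm {C : Subgroup G} [Fintype C] (hχ : IsIrrCharacter G χ)
    (hfaith : ∀ g, χ g = χ 1 → g = 1) (hAC : A ≤ C) (hcen : ∀ a ∈ A, ∀ g ∈ C, g * a = a * g)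
    (hmult : ∀ ν : A → ℂ, IsIrrCharacter A ν → classInner (fun a : A => χ a) ν ≠ 0 →
      classInner (fun a : A => χ a) ν = 1) : ∀ u ∈ C, ∀ v ∈ C, u * v = v * u := by
  classical
  have hres := isCharacter_restrict (isCharacter_of_isIrrCharacter hχ) C
  obtain ⟨m, hm⟩ := exists_nat_decomp hres
  have hlin : ∀ ψ, m ψ ≠ 0 → (ψ : C → ℂ) 1 = 1 := by
    intro ψ hψ
    have hinner : classInner (fun h : C => χ h) ψ = m ψ := by
      have := classInner_sum_irr (G := C) (fun ψ => (m ψ : ℂ)) ψ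
      rw [← this]
      congr 1
      rw [hm]
      exact Finset.sum_congr rfl (fun ψ _ => by rw [Nat.cast_smul_eq_nsmul])
    have hne : classInner (fun h : C => χ h) ψ ≠ 0 := by
      rw [hinner]
      exact_mod_cast hψ
    obtain ⟨Ξ, hΞ, hadd⟩ := exists_char_add hres ψ.2 hne
    obtain ⟨D, hD0, hD⟩ := irr_degree_pos ψ.2
    let i : A →* C := Subgroup.inclusion hAC
    have hcenz : ∀ (z : A) (g : C), g * i z = i z * g := fun z g =>
      Subtype.ext (hcen z z.2 g g.2)
    choose a ha1 ha2 using fun z : A =>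
      Cfsg.Agent.Lib.Char.BlichfeldtB.irr_central_mul ψ.2 (i z) (hcenz z)
    have hD' : (D : ℂ) ≠ 0 := by exact_mod_cast hD0.ne'
    have hval : ∀ z, (ψ : C → ℂ) (i z) = a z * D := by
      intro z
      have := ha2 z 1
      rwa [mul_one, hD] at this
    let f : A →* ℂ :=
      { toFun := a
        map_one' := by
          have h1 := hval 1
          rw [map_one, hD] at h1
          have h2 : (1 : ℂ) * D = a 1 * D := by rw [one_mul]; exact h1
          exact (mul_right_cancel₀ hD' h2).symm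
        map_mul' := fun z w => by
          have h1 := hval (z * w)
          rw [map_mul, ha2, hval] at h1
          have h2 : a (z * w) * D = (a z * a w) * D := by rw [← h1]; ring
          exact mul_right_cancel₀ hD' h2 }
    let ν : A → ℂ := fun z => ((f.toHomUnits z : ℂˣ) : ℂ)
    have hν : IsIrrCharacter A ν := Cfsg.Agent.Lib.Char.LinearChars.isIrr_of_hom _
    have hνf : ∀ z, ν z = a z := fun z => rfl
    have hΞ' : IsCharacter A (fun z => Ξ (i z)) := isCharacter_comp_hom hΞ i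
    have hA' : (fun z : A => χ z) = (D : ℂ) • ν + (fun z => Ξ (i z)) := by
      funext z
      have h1 := congrFun hadd (i z)
      have h2 : χ z = (ψ : C → ℂ) (i z) + Ξ (i z) := h1
      rw [h2, hval, ← hνf]
      simp [mul_comm]
    have hin : classInner (fun z : A => χ z) ν = D + classInner (fun z => Ξ (i z)) ν := by
      rw [hA', classInner_add_left, classInner_smul_left, classInner_irr_self hν, mul_one]
    obtain ⟨k, hk⟩ := exists_nat_classInner hΞ' ⟨ν, hν⟩
    simp only at hk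
    have hne' : classInner (fun z : A => χ z) ν ≠ 0 := by
      rw [hin, hk]
      have : D + k ≠ 0 := by omega
      exact_mod_cast this
    have h1 := hmult ν hν hne'
    rw [hin, hk] at h1
    have h2 : D + k = 1 := by exact_mod_cast h1
    have h3 : D = 1 := by omega
    rw [hD, h3]
    simp
  intro u hu v hv
  let u' : C := ⟨u, hu⟩
  let v' : C := ⟨v, hv⟩
  have h1 : ⁅u', v'⁆ ∈ commutator C :=
    Subgroup.commutator_mem_commutator (Subgroup.mem_top _) (Subgroup.mem_top _)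
  have h2 := char_commutator_of_linear m hlin h1
  rw [← hm] at h2
  simp only [OneMemClass.coe_one] at h2
  have h3 := hfaith _ h2
  have h4 : ⁅u', v'⁆ = 1 := Subtype.ext h3
  have h5 := commutatorElement_eq_one_iff_mul_comm.1 h4
  exact congrArg Subtype.val h5

/-- The `p`-part of an abelian normal subgroup is in `O_p(G)`. -/
lemma index_of_comm_normal {C : Subgroup G} [hC : C.Normal] (hCc : ∀ u ∈ C, ∀ v ∈ C, u * v = v * u)
    (hp : p.Prime) (hidx : ¬ p ^ 2 ∣ C.index) : ¬ p ^ 2 ∣ (pCore p G).index := by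
  haveI : Fact p.Prime := ⟨hp⟩
  let N₁ : Subgroup G :=
    { carrier := {g | g ∈ C ∧ ∃ k : ℕ, g ^ (p ^ k) = 1}
      one_mem' := ⟨C.one_mem, 0, by simp⟩
      mul_mem' := by
        rintro a b ⟨ha, k, hk⟩ ⟨hb, l, hl⟩
        refine ⟨C.mul_mem ha hb, k + l, ?_⟩
        have hcomm : Commute a b := hCc a ha b hb
        rw [hcomm.mul_pow, pow_add, pow_mul, hk, one_pow, one_mul, mul_comm, pow_mul, hl, one_pow]
      inv_mem' := by
        rintro a ⟨ha, k, hk⟩
        exact ⟨C.inv_mem ha, k, by rw [inv_pow, hk, inv_one]⟩ }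
  have hN₁ : N₁.Normal := ⟨fun a ha g => ⟨hC.conj_mem a ha.1 g, ha.2.choose, by
    rw [conj_pow, ha.2.choose_spec]
    group⟩⟩
  have hPg : IsPGroup p N₁ := fun g => by
    obtain ⟨k, hk⟩ := g.2.2
    exact ⟨k, Subtype.ext (by simpa using hk)⟩
  have hle : N₁ ≤ pCore p G := Cfsg.Agent.Lib.Basic.PCore.le_pCore hN₁ hPg
  have hN₁C : N₁ ≤ C := fun g hg => hg.1
  have h1 := Subgroup.relIndex_mul_index hN₁C
  obtain ⟨T⟩ : Nonempty (Sylow p C) := inferInstance
  have hT : (T : Subgroup C) ≤ N₁.subgroupOf C := by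
    intro t ht
    obtain ⟨k, hk⟩ := T.isPGroup' ⟨t, ht⟩
    rw [Subgroup.mem_subgroupOf]
    refine ⟨t.2, k, ?_⟩
    have := congrArg (fun y : (T : Subgroup C) => ((y : C) : G)) hk
    simpa using this
  have h2 : ¬ p ∣ N₁.relIndex C := by
    intro h
    have h3 : (N₁.subgroupOf C).index ∣ (T : Subgroup C).index := Subgroup.index_dvd_of_le hT
    exact T.not_dvd_index (h.trans h3)
  intro h
  have h4 : p ^ 2 ∣ N₁.index := h.trans (Subgroup.index_dvd_of_le hle)
  rw [← h1] at h4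
  have hcop : Nat.Coprime (p ^ 2) (N₁.relIndex C) :=
    Nat.Coprime.pow_left 2 ((Nat.Prime.coprime_iff_not_dvd hp).2 h2)
  exact hidx (hcop.dvd_of_dvd_mul_left h4)

end D

section Final

variable {G : Type u} [Group G] [Finite G]

theorem index_of_special {χ : G → ℂ} {n p : ℕ} {x : G} {ζ : ℂ} (hχ : IsIrrCharacter G χ)
    (hfaith : ∀ g, χ g = χ 1 → g = 1) (hp : p.Prime) (hn : χ 1 = n) (hnlt : p < n) (hn2 : n < 2 * p)
    (hxk : ∀ k : ℕ, χ (x ^ k) = (p : ℂ) * ζ ^ k + ((n : ℂ) - p)) (hζ : IsPrimitiveRoot ζ p)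
    (hxp : x ^ p = 1) {A : Subgroup G} [hA : A.Normal] (hAc : ∀ a ∈ A, ∀ b ∈ A, a * b = b * a)
    (hxA : x ∈ A) : ¬ p ^ 2 ∣ (pCore p G).index := by
  classical
  cases nonempty_fintype G
  haveI : Fintype A := Fintype.ofFinite A
  have hAc' : ∀ a b : A, a * b = b * a := fun a b => Subtype.ext (hAc a a.2 b b.2)
  have hres := isCharacter_restrict (isCharacter_of_isIrrCharacter hχ) A
  have hp0 : (p : ℂ) ≠ 0 := by exact_mod_cast hp.ne_zero
  have hn0 : (n : ℂ) ≠ 0 := by
    have : n ≠ 0 := by omega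
    exact_mod_cast this
  obtain ⟨ν, hνne⟩ : ∃ ν : IrrCharacter A, classInner (fun a : A => χ a) ν ≠ 0 := by
    by_contra hcon
    push Not at hcon
    have h1 := decomp_eq_sum_classInner hres
    have h2 := congrFun h1 1
    simp only [Finset.sum_apply, Pi.smul_apply, hcon, zero_smul, OneMemClass.coe_one, hn] at h2
    simp at h2
    omega
  have hmult : ∀ ν : A → ℂ, IsIrrCharacter A ν → classInner (fun a : A => χ a) ν ≠ 0 →
      classInner (fun a : A => χ a) ν = 1 ∧
      ∀ hν : IsIrrCharacter A ν, ∀ a : A, χ a = ∑ ψ ∈ (orbitSet_finite A hν).toFinset, ψ a := by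
    intro ν hν hne
    exact ⟨(mult_eq_one A hχ hp hn hnlt hn2 hxk hζ hxp hAc' hxA hν hne).1, fun hν' =>
      (mult_eq_one A hχ hp hn hnlt hn2 hxk hζ hxp hAc' hxA hν' hne).2⟩
  have hall := (hmult ν ν.2 hνne).2 ν.2
  set S := (orbitSet_finite A ν.2).toFinset with hS
  have hSmem : ∀ ψ ∈ S, ψ ∈ orbitSet A (ν : A → ℂ) := fun ψ hψ =>
    (orbitSet_finite A ν.2).mem_toFinset.1 hψ
  have hirr : ∀ ψ ∈ S, IsIrrCharacter A ψ := fun ψ hψ => orbitSet_subset_irr A ν.2 (hSmem ψ hψ)
  have hone : ∀ ψ ∈ S, ψ 1 = 1 := fun ψ hψ =>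
    Cfsg.Agent.Lib.Char.NormExt.irr_one_of_comm hAc' (hirr ψ hψ)
  have hhom : ∀ ψ ∈ S, ∃ φ : A →* ℂˣ, ψ = fun g => ((φ g : ℂˣ) : ℂ) := fun ψ hψ =>
    Cfsg.Agent.Lib.Char.LinearChars.exists_hom_of_isCharacter_one
      (isCharacter_of_isIrrCharacter (hirr ψ hψ)) (hone ψ hψ)
  have hcard : S.card = n := by
    have h1 := hall 1
    simp only [OneMemClass.coe_one, hn] at h1
    rw [Finset.sum_congr rfl hone] at h1
    simp only [Finset.sum_const, nsmul_eq_mul, mul_one] at h1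
    exact_mod_cast h1.symm
  let C : Subgroup G := Subgroup.centralizer (A : Set G)
  haveI hCn : C.Normal := Subgroup.normal_centralizer
  haveI : Fintype C := Fintype.ofFinite C
  have hker : (omegaHom A (ν : A → ℂ)).ker ≤ C := fun g hg =>
    ker_le_centralizer A hfaith hSmem hall hhom hg
  have hAC : A ≤ C := fun a ha => by
    rw [Subgroup.mem_centralizer_iff]
    intro b hb
    exact hAc b hb a ha
  have hcen : ∀ a ∈ A, ∀ g ∈ C, g * a = a * g := fun a ha g hg =>
    ((Subgroup.mem_centralizer_iff.1 hg) a ha).symm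
  have hCc := centralizer_comm A hχ hfaith hAC hcen fun ν hν hne => (hmult ν hν hne).1
  apply index_of_comm_normal hCc hp
  have hdvd : C.index ∣ n.factorial := by
    have h1 : C.index ∣ (omegaHom A (ν : A → ℂ)).ker.index := Subgroup.index_dvd_of_le hker
    have h2 := Subgroup.index_ker (omegaHom A (ν : A → ℂ))
    rw [h2] at h1
    have h3 : Nat.card (omegaHom A (ν : A → ℂ)).range ∣
        Nat.card (Equiv.Perm {ψ : A → ℂ // ψ ∈ orbitSet A (ν : A → ℂ)}) :=
      Subgroup.card_subgroup_dvd_card _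
    have h4 : Nat.card {ψ : A → ℂ // ψ ∈ orbitSet A (ν : A → ℂ)} = n := by
      rw [← hcard, hS, ← Set.ncard_eq_toFinset_card _ (orbitSet_finite A ν.2)]
      exact Nat.card_coe_set_eq _
    haveI : Finite {ψ : A → ℂ // ψ ∈ orbitSet A (ν : A → ℂ)} := (orbitSet_finite A ν.2).to_subtype
    have h5 : Nat.card (Equiv.Perm {ψ : A → ℂ // ψ ∈ orbitSet A (ν : A → ℂ)}) = n.factorial := by
      rw [Nat.card_perm, h4]
    rw [h5] at h3
    exact h1.trans h3
  exact fun h => not_sq_dvd_factorial hp hn2 (h.trans hdvd)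

end Final

end Cfsg.Agent.Lib.QuadRefl
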